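-- helper25: SUG (S2412) package [TOP]
import Cfsg.Agent.Lib.Helper60.SUG.Defs
import Cfsg.Agent.Lib.Helper13.SUGen3

set_option autoImplicit false

namespace Cfsg.Agent.Lib.Helper25.SUG

open Matrix Cfsg.Agent.Lib.Helper60.SUG Cfsg.Agent.Lib.Helper13 Cfsg.Agent.Lib.Helper45
  Cfsg.Agent.Lib.Helper44

universe u

/-- [TOP] if every nonzero isotropic vector is a centre of `K` then `K = ⊤`. -/
theorem pkgTop : PkgTop.{u} := by
  intro F _ _ q n hF hn h32 K hK
  classical
  have hq2 := Cfsg.Agent.Lib.Helper45.two_le_q hF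
  have hcond : 4 ≤ n ∨ 3 ≤ q := by
    by_contra hcon
    push Not at hcon
    apply h32
    constructor <;> omega
  rw [eq_top_iff]
  intro g _
  have hM : IsHermIso n F q (mat g) := g.2
  have hdet : (mat g).det = 1 := (g : Matrix.SpecialLinearGroup (Fin n) F).2
  have hT := su_inT hF n hcond (mat g) hM hdet
  have key : ∀ M : Matrix (Fin n) (Fin n) F, InT n F q M →
      ∀ g : ↥(Cfsg.SU n F q), mat g = M → g ∈ K := by
    intro M hMT
    refine Submonoid.closure_induction
      (motive := fun M _ => ∀ g : ↥(Cfsg.SU n F q), mat g = M → g ∈ K) ?_ ?_ ?_ hMT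
    · rintro x ⟨v, c, hv, hc, rfl⟩ g hg
      by_cases hv0 : v = 0
      · have h1 : g = 1 := by
          apply su_ext
          rw [show ((g : Matrix.SpecialLinearGroup (Fin n) F) : Matrix (Fin n) (Fin n) F)
            = mat g from rfl, hg, hv0, Matrix.ext_iff_mulVec]
          intro x
          rw [utransv_mulVec, smul_zero, add_zero]
          simp
        rw [h1]
        exact K.one_mem
      · exact (hK v hv0 hv).2.2 g c hc hg
    · intro g hg
      have h1 : g = 1 := by
        apply su_ext
        rw [show ((g : Matrix.SpecialLinearGroup (Fin n) F) : Matrix (Fin n) (Fin n) F)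
          = mat g from rfl, hg]
        rfl
      rw [h1]
      exact K.one_mem
    · intro x y hx hy ihx ihy g hg
      obtain ⟨hxi, hxd⟩ := inT_iso_det hF (show InT n F q x from hx)
      obtain ⟨hyi, hyd⟩ := inT_iso_det hF (show InT n F q y from hy)
      have h1 : g = suMk x hxd hxi * suMk y hyd hyi := by
        apply su_ext
        rw [show ((g : Matrix.SpecialLinearGroup (Fin n) F) : Matrix (Fin n) (Fin n) F)
          = mat g from rfl, hg]
        rfl
      rw [h1]
      exact K.mul_mem (ihx _ rfl) (ihy _ rfl)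
  exact key _ hT g rfl

end Cfsg.Agent.Lib.Helper25.SUG
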